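import Cfsg.Agent.OD.Pre
import Cfsg.Agent.H6.TCTop
import Cfsg.Agent.H6.HeT1.C
set_option autoImplicit false
set_option maxRecDepth 100000
set_option Elab.async false
set_option linter.all false
namespace CfH6.HeT1
open CfH6
theorem p0 : C.OkL 256 3328 := C.okL_of 256 24 0 3328 (by decide) (by decide +kernel)
theorem p1 : C.OkL 3328 6400 := C.okL_of 3328 24 0 6400 (by decide) (by decide +kernel)
theorem p2 : C.OkL 6400 9344 := C.okL_of 6400 23 0 9344 (by decide) (by decide +kernel)
theorem p3 : C.OkL 9344 12288 := C.okL_of 9344 23 0 12288 (by decide) (by decide +kernel)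
theorem p4 : C.OkL 12288 15232 := C.okL_of 12288 23 0 15232 (by decide) (by decide +kernel)
theorem p5 : C.OkL 15232 18176 := C.okL_of 15232 23 0 18176 (by decide) (by decide +kernel)
theorem p6 : C.OkL 18176 21120 := C.okL_of 18176 23 0 21120 (by decide) (by decide +kernel)
theorem p7 : C.OkL 21120 24064 := C.okL_of 21120 23 0 24064 (by decide) (by decide +kernel)
theorem p8 : C.OkL 24064 27008 := C.okL_of 24064 23 0 27008 (by decide) (by decide +kernel)
theorem p9 : C.OkL 27008 29824 := C.okL_of 27008 22 0 29824 (by decide) (by decide +kernel)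
theorem p10 : C.OkL 29824 32640 := C.okL_of 29824 22 0 32640 (by decide) (by decide +kernel)
theorem p11 : C.OkL 32640 35456 := C.okL_of 32640 22 0 35456 (by decide) (by decide +kernel)
theorem p12 : C.OkL 35456 38272 := C.okL_of 35456 22 0 38272 (by decide) (by decide +kernel)
theorem p13 : C.OkL 38272 41088 := C.okL_of 38272 22 0 41088 (by decide) (by decide +kernel)
theorem p14 : C.OkL 41088 43776 := C.okL_of 41088 21 0 43776 (by decide) (by decide +kernel)
theorem p15 : C.OkL 43776 46464 := C.okL_of 43776 21 0 46464 (by decide) (by decide +kernel)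
theorem p16 : C.OkL 46464 49152 := C.okL_of 46464 21 0 49152 (by decide) (by decide +kernel)
theorem p17 : C.OkL 49152 50236 := C.okL_of 49152 8 60 50236 (by decide) (by decide +kernel)
theorem p18 : C.OkR 50236 50702 := C.okR_of 50236 3 82 50702 (by decide) (by decide +kernel)
end CfH6.HeT1
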